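import Cfsg.Agent.Lib.KInf.NotStable
import Cfsg.Agent.Lib.KInf.Control
import Cfsg.Agent.Lib.PGroups.PStableSL

/-!
Glauberman's obstruction does not need a Sylow subgroup: any `p`-subgroup containing the core has a
normal K-infinity subgroup in a constrained group without `SL(2,p)` sections.
-/

set_option autoImplicit false
set_option linter.style.haveILetI false

namespace CfsgLib.KInf

open Cfsg CfsgLib.ConjFunctor
open scoped commutatorElement

universe u

variable {G : Type u} [Group G] [Finite G] {p : ℕ} [Fact p.Prime]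

/-- **Glauberman's obstruction** for a `p`-subgroup containing the core. -/
theorem CriticalData.exists_obstruction_of_core_le {A Z : Subgroup G} (hA : CriticalData p A Z)
    (S' : Subgroup G) (hS : IsPGroup p S') (hTS : pCore p G ≤ S')
    (hK : ¬ (Cfsg.inducedFunctor Cfsg.kInfLower S').Normal) :
    ∃ g, IsObstruction p S' A Z g := by
  by_contra hno
  set T := pCore p G
  have hAS : A ≤ S' := hA.le_core.trans hTS
  have hlow : A ∈ kLowerStarFamily S' := not_not.1 fun h => hno (hA.obstruction_of_test h)
  have inj := S'.subtype_injective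
  have hAm : (A.subgroupOf S').map S'.subtype = A := Subgroup.map_subgroupOf_eq_of_le hAS
  have hstep : ∀ n, A ≤ (kSeqOdd S' n).map S'.subtype → (kSeqEven S' n).map S'.subtype ≤ T ∧
      (kSeqOdd S' (n + 1)).map S'.subtype ≤ T ∧ A ≤ (kSeqOdd S' (n + 1)).map S'.subtype := by
    intro n hn
    have h1 : (kSeqEven S' n).map S'.subtype ≤ T := by
      rw [Subgroup.map_le_iff_le_comap]
      refine sSup_le fun B hB => Subgroup.map_le_iff_le_comap.1 ?_
      by_contra hBT
      exact hno (hA.obstruction_of_lower hS ((lower_map_iff inj B _).2 hB) hn (Subgroup.map_subtype_le B) hBT)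
    have hAE : A ≤ (kSeqEven S' n).map S'.subtype := by
      rw [← hAm]
      refine Subgroup.map_mono (le_sSup ((lower_map_iff inj _ _).1 ?_))
      rw [hAm]
      exact lowerFamily_antitone (Subgroup.map_subtype_le _) hlow
    have h2 : (kSeqOdd S' (n + 1)).map S'.subtype ≤ T := by
      rw [Subgroup.map_le_iff_le_comap]
      refine sSup_le fun B hB => Subgroup.map_le_iff_le_comap.1 ?_
      by_contra hBT
      exact hno (hA.obstruction_of_upper ((upper_map_iff inj B (kSeqEven S' n)).2 hB) hAE (Subgroup.map_subtype_le B) hBT)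
    refine ⟨h1, h2, ?_⟩
    rw [← hAm]
    refine Subgroup.map_mono (le_sSup ((upper_map_iff inj _ (kSeqEven S' n)).1 ?_))
    rw [hAm]
    refine ⟨hlow.1, ?_⟩
    rw [Subgroup.commutator_comm, ← hA.z_eq]
    exact (Subgroup.commutator_mono h1 le_rfl).trans hA.core_comm
  have hall : ∀ n, A ≤ (kSeqOdd S' n).map S'.subtype := by
    intro n
    induction n with
    | zero =>
      rw [show kSeqOdd S' 0 = ⊤ from rfl, ← MonoidHom.range_eq_map, Subgroup.range_subtype]
      exact hAS
    | succ n ih => exact (hstep n ih).2.2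
  set i := Subgroup.inclusion hTS
  obtain ⟨r1, -⟩ := kInf_restrict (f := i) (Subgroup.inclusion_injective _) fun n => by
    have hr : i.range = T.subgroupOf S' := Subgroup.inclusion_range _
    rw [hr]
    exact ⟨Subgroup.map_le_iff_le_comap.1 (hstep n (hall n)).1, Subgroup.map_le_iff_le_comap.1 (hstep n (hall n)).2.1⟩
  have hsub : S'.subtype.comp i = T.subtype := rfl
  refine hK ?_
  unfold Cfsg.inducedFunctor
  rw [← r1, Subgroup.map_map, hsub]
  exact map_kInf_normal fun e => (kInf_map_equiv e).1

/-- Without `SL(2,p)` sections the normalizers act `p`-stably. -/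
theorem isNormalizerPStable_of_slFree (hG : PGroups.SLFree p G) (hp2 : p ≠ 2) :
    Cfsg.IsNormalizerPStable p G := by
  intro P hP g hg hq
  obtain ⟨N, hN⟩ : ∃ N, N = Subgroup.normalizer (P : Set G) := ⟨_, rfl⟩
  subst hN
  haveI : (P.subgroupOf (Subgroup.normalizer (P : Set G))).Normal := Subgroup.normal_in_normalizer
  set P' := P.subgroupOf (Subgroup.normalizer (P : Set G)) with hP'
  have hm : P'.map (Subgroup.normalizer (P : Set G)).subtype = P :=
    Subgroup.map_subgroupOf_eq_of_le Subgroup.le_normalizer
  have hC : Subgroup.centralizer (P' : Set ↥(Subgroup.normalizer (P : Set G))) =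
      (Subgroup.centralizer (P : Set G)).subgroupOf (Subgroup.normalizer (P : Set G)) := by
    ext x
    rw [Subgroup.mem_subgroupOf, Subgroup.mem_centralizer_iff, Subgroup.mem_centralizer_iff]
    exact ⟨fun h y hy => congrArg Subtype.val (h ⟨y, Subgroup.le_normalizer hy⟩ hy),
      fun h y hy => Subtype.ext (h y hy)⟩
  have hq' : ⁅⁅P', Subgroup.zpowers (⟨g, hg⟩ : ↥(Subgroup.normalizer (P : Set G)))⁆,
      Subgroup.zpowers (⟨g, hg⟩ : ↥(Subgroup.normalizer (P : Set G)))⁆ = ⊥ := by
    refine Subgroup.map_injective (Subgroup.normalizer (P : Set G)).subtype_injective ?_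
    rw [Subgroup.map_commutator, Subgroup.map_commutator, MonoidHom.map_zpowers, hm, Subgroup.map_bot]
    exact hq
  have hmem := (hG.subgroup _).isPStableOn hp2 P' hP.comap_subtype _ hq'
  have e := QuotientGroup.quotientMulEquivOfEq hC
  have hmap : (pCore p _).map (QuotientGroup.quotientMulEquivOfEq hC).toMonoidHom ≤ pCore p _ :=
    Cores.map_pCore_le_of_surjective (QuotientGroup.quotientMulEquivOfEq hC).surjective
  exact hmap ⟨_, hmem, QuotientGroup.quotientMulEquivOfEq_mk hC _⟩

/-- In a constrained group without `SL(2,p)` sections, the K-infinity subgroup of any `p`-subgroup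
containing the core is normal. -/
theorem normal_kInfLower_of_core_le (hG : PGroups.SLFree p G) (hp2 : p ≠ 2)
    (hc : Subgroup.centralizer (pCore p G : Set G) ≤ pCore p G) (S : Subgroup G)
    (hS : IsPGroup p S) (hTS : pCore p G ≤ S) :
    (Cfsg.inducedFunctor Cfsg.kInfLower S).Normal := by
  by_contra hn
  obtain ⟨A, Z, hA⟩ := exists_criticalData p G
  obtain ⟨g, hg⟩ := hA.exists_obstruction_of_core_le S hS hTS hn
  obtain ⟨U, V, h1, h2, h3, h4⟩ := hg.2.2.2.2 hc
  obtain ⟨N, hN, hns⟩ := not_stable_of_chief h1
    ((Cores.isPGroup_pCore p G).to_le (h2.trans hA.le_core)) h3 h4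
  haveI := hN
  exact hns (isNormalizerPStable_of_slFree
    (hG.of_surjective (QuotientGroup.mk' N) (QuotientGroup.mk'_surjective N)) hp2)

end CfsgLib.KInf
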